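import Mathlib

/-!
# A form of Dirichlet's simultaneous approximation for `p`-th roots of unity
-/

set_option autoImplicit false

namespace Cfsg.Agent.Lib.Blich.Dirichlet

open Finset Complex

/-- The standard primitive root. -/
noncomputable def zeta (p : ℕ) : ℂ := Complex.exp (2 * Real.pi * I / p)

lemma zeta_primitive {p : ℕ} (hp : p ≠ 0) : IsPrimitiveRoot (zeta p) p :=
  Complex.isPrimitiveRoot_exp p hp

lemma norm_zeta {p : ℕ} (hp : p ≠ 0) : ‖zeta p‖ = 1 :=
  Complex.norm_eq_one_of_pow_eq_one (zeta_primitive hp).pow_eq_one hp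

lemma norm_zeta_pow {p : ℕ} (hp : p ≠ 0) (m : ℕ) : ‖zeta p ^ m‖ = 1 := by
  rw [norm_pow, norm_zeta hp, one_pow]

/-- A small power of the standard root is at distance less than one from `1`. -/
lemma norm_pow_sub_one_lt {p m : ℕ} (hp : p ≠ 0) (hm : 6 * m < p) : ‖zeta p ^ m - 1‖ < 1 := by
  have hp0 : (0 : ℝ) < p := by exact_mod_cast Nat.pos_of_ne_zero hp
  have hpc : (p : ℂ) ≠ 0 := by exact_mod_cast hp
  have e : zeta p ^ m = Complex.exp (I * ((2 * Real.pi * m / p : ℝ) : ℂ)) := by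
    rw [zeta, ← Complex.exp_nat_mul]
    congr 1
    push_cast
    field_simp
  rw [e, Complex.norm_exp_I_mul_ofReal_sub_one]
  have hx : (2 * Real.pi * m / p : ℝ) / 2 = Real.pi * (m / p) := by
    field_simp
  rw [hx]
  have hm' : (m : ℝ) / p < 1 / 6 := by
    rw [div_lt_div_iff₀ hp0 (by norm_num)]
    have : (6 * m : ℝ) < p := by exact_mod_cast hm
    linarith
  have hm0 : 0 ≤ (m : ℝ) / p := by positivity
  have hpi := Real.pi_pos
  have h1 : Real.pi * ((m : ℝ) / p) < Real.pi / 6 := by nlinarith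
  have h0 : 0 ≤ Real.pi * ((m : ℝ) / p) := by positivity
  have hs := Real.sin_lt_sin_of_lt_of_le_pi_div_two (x := Real.pi * ((m : ℝ) / p)) (y := Real.pi / 6)
    (by linarith) (by linarith) h1
  rw [Real.sin_pi_div_six] at hs
  have hs0 : 0 ≤ Real.sin (Real.pi * ((m : ℝ) / p)) :=
    Real.sin_nonneg_of_nonneg_of_le_pi h0 (by linarith)
  rw [Real.norm_eq_abs, abs_of_nonneg (by positivity)]
  linarith

/-- Two powers of the standard root with near exponents are at distance less than one. -/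
lemma norm_pow_sub_pow_lt {p a b : ℕ} (hp : p ≠ 0) (h1 : 6 * (a - b) < p) (h2 : 6 * (b - a) < p) :
    ‖zeta p ^ a - zeta p ^ b‖ < 1 := by
  rcases le_total b a with h | h
  · have e : zeta p ^ a - zeta p ^ b = zeta p ^ b * (zeta p ^ (a - b) - 1) := by
      rw [mul_sub, mul_one, ← pow_add, Nat.add_sub_cancel' h]
    rw [e, norm_mul, norm_zeta_pow hp, one_mul]
    exact norm_pow_sub_one_lt hp h1
  · have e : zeta p ^ a - zeta p ^ b = -(zeta p ^ a * (zeta p ^ (b - a) - 1)) := by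
      rw [mul_sub, mul_one, ← pow_add, Nat.add_sub_cancel' h]
      ring
    rw [e, norm_neg, norm_mul, norm_zeta_pow hp, one_mul]
    exact norm_pow_sub_one_lt hp h2

/-- **Dirichlet.**  If `6 ^ (|J| - 1) < p` then for `j₀ ∈ J` some `0 < k < p` makes all the
`ζ ^ (j k)` (`j ∈ J`) near to `ζ ^ (j₀ k)`. -/
theorem exists_near {p : ℕ} (hp : p ≠ 0) (J : Finset ℕ) {j₀ : ℕ} (hj₀ : j₀ ∈ J)
    (hJ : ∀ j ∈ J, j < p) (hcard : 6 ^ (J.card - 1) < p) :
    ∃ k, 0 < k ∧ k < p ∧ ∀ j ∈ J, ‖(zeta p ^ j) ^ k - (zeta p ^ j₀) ^ k‖ < 1 := by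
  classical
  set J' : Finset ℕ := J.erase j₀ with hJ'
  have hcard' : J'.card = J.card - 1 := Finset.card_erase_of_mem hj₀
  -- the difference exponent
  let δ : ℕ → ℕ := fun j => j + (p - j₀)
  have hj₀lt := hJ j₀ hj₀
  have hδ : ∀ j, zeta p ^ δ j * zeta p ^ j₀ = zeta p ^ j := by
    intro j
    have h1 : j + (p - j₀) + j₀ = j + p := by omega
    rw [← pow_add, h1, pow_add, (zeta_primitive hp).pow_eq_one, mul_one]
  have hppos : 0 < p := Nat.pos_of_ne_zero hp
  -- the box map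
  let box : Fin p → (J' → Fin 6) := fun k j =>
    ⟨6 * ((k.1 * δ j.1) % p) / p, by
      have := Nat.mod_lt (k.1 * δ j.1) hppos
      exact Nat.div_lt_of_lt_mul (by nlinarith)⟩
  have hc : Fintype.card (J' → Fin 6) < Fintype.card (Fin p) := by
    simp only [Fintype.card_pi, Fintype.card_fin, Finset.prod_const, Finset.card_univ,
      Fintype.card_coe]
    rw [hcard']
    exact hcard
  obtain ⟨k₁, k₂, hne, hbox⟩ := Fintype.exists_ne_map_eq_of_card_lt box hc
  -- wlog `k₁ < k₂`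
  have main : ∀ k₁ k₂ : Fin p, k₁ < k₂ → box k₁ = box k₂ →
      ∃ k, 0 < k ∧ k < p ∧ ∀ j ∈ J, ‖(zeta p ^ j) ^ k - (zeta p ^ j₀) ^ k‖ < 1 := by
    intro k₁ k₂ hlt hb
    have hlt' : k₁.1 < k₂.1 := hlt
    refine ⟨k₂.1 - k₁.1, by omega, by have := k₂.2; omega, ?_⟩
    intro j hj
    by_cases hjj : j = j₀
    · subst hjj
      simp
    have hjmem : j ∈ J' := Finset.mem_erase.mpr ⟨hjj, hj⟩
    have hbj := congrFun hb ⟨j, hjmem⟩
    have hbj' : 6 * ((k₁.1 * δ j) % p) / p = 6 * ((k₂.1 * δ j) % p) / p :=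
      congrArg Fin.val hbj
    set r₁ := (k₁.1 * δ j) % p with hr₁
    set r₂ := (k₂.1 * δ j) % p with hr₂
    -- near residues
    have hnear : 6 * (r₁ - r₂) < p ∧ 6 * (r₂ - r₁) < p := by
      set s := 6 * r₁ / p with hs
      have h1 := Nat.div_add_mod (6 * r₁) p
      have h2 := Nat.div_add_mod (6 * r₂) p
      rw [← hbj'] at h2
      have h3 := Nat.mod_lt (6 * r₁) hppos
      have h4 := Nat.mod_lt (6 * r₂) hppos
      generalize p * s = w at h1 h2
      constructor <;> omega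
    have hd := norm_pow_sub_pow_lt hp hnear.2 hnear.1
    -- powers
    have hpow : ∀ t : ℕ, zeta p ^ (t * δ j) = zeta p ^ ((t * δ j) % p) := by
      intro t
      exact pow_eq_pow_mod _ (zeta_primitive hp).pow_eq_one
    have e1 : zeta p ^ r₂ = zeta p ^ r₁ * (zeta p ^ δ j) ^ (k₂.1 - k₁.1) := by
      rw [hr₂, hr₁, ← hpow, ← hpow, ← pow_mul, ← pow_add]
      congr 1
      have : k₂.1 * δ j = (k₁.1 + (k₂.1 - k₁.1)) * δ j := by
        congr 1
        omega
      rw [this, add_mul, mul_comm (δ j)]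
    have e2 : (zeta p ^ j) ^ (k₂.1 - k₁.1) - (zeta p ^ j₀) ^ (k₂.1 - k₁.1) =
        (zeta p ^ j₀) ^ (k₂.1 - k₁.1) * ((zeta p ^ δ j) ^ (k₂.1 - k₁.1) - 1) := by
      rw [← hδ j, mul_pow]
      ring
    rw [e2, norm_mul, norm_pow, norm_zeta_pow hp, one_pow, one_mul]
    have e3 : zeta p ^ r₂ - zeta p ^ r₁ = zeta p ^ r₁ * ((zeta p ^ δ j) ^ (k₂.1 - k₁.1) - 1) := by
      rw [e1]
      ring
    rw [e3, norm_mul, norm_zeta_pow hp, one_mul] at hd
    exact hd
  rcases lt_or_gt_of_ne (fun h => hne (Fin.ext (congrArg Fin.val h)) : k₁ ≠ k₂) with h | h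
  · exact main k₁ k₂ h hbox
  · exact main k₂ k₁ h hbox.symm

end Cfsg.Agent.Lib.Blich.Dirichlet
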