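import Mathlib

/-!
# A Blichfeldt type lemma: contraction on an eigenspace

Let `U` be a unitary representation of a finite group in a C*-algebra and let `P` be the spectral
projection of `U x` at `α`.  If `‖U x - α‖ < 1` then every conjugate of `x` commutes with `P`.
Note that only the distance of the spectrum of `U x` from the *one* point `α` of the spectrum
matters, not the diameter of the spectrum.
-/

set_option autoImplicit false
set_option linter.unusedSectionVars false

namespace Cfsg.Agent.Lib.Blich.Core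

universe u v

variable {G : Type u} [Group G] [Finite G] {𝔸 : Type v} [NormedRing 𝔸] [StarRing 𝔸] [CStarRing 𝔸]
  [NormedAlgebra ℂ 𝔸]

/-- A self adjoint idempotent of norm at most one: its norm is `0` or `1`. -/
lemma norm_eq_zero_or_one_of_proj {e : 𝔸} (h1 : e * e = e) (h2 : star e = e) :
    ‖e‖ = 0 ∨ ‖e‖ = 1 := by
  have h := CStarRing.norm_star_mul_self (x := e)
  rw [h2, h1] at h
  by_cases h0 : ‖e‖ = 0
  · exact Or.inl h0
  · right
    have : ‖e‖ * (‖e‖ - 1) = 0 := by linarith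
    rcases mul_eq_zero.mp this with h3 | h3
    · exact absurd h3 h0
    · linarith

lemma norm_le_one_of_proj {e : 𝔸} (h1 : e * e = e) (h2 : star e = e) : ‖e‖ ≤ 1 := by
  rcases norm_eq_zero_or_one_of_proj h1 h2 with h | h <;> rw [h]
  exact zero_le_one

variable (U : G →* 𝔸) (hU : ∀ g, star (U g) * U g = 1)

include hU

lemma star_U (g : G) : star (U g) = U g⁻¹ := by
  have h1 : U g⁻¹ * U g = 1 := by rw [← map_mul]; simp
  have h2 : U g * U g⁻¹ = 1 := by rw [← map_mul]; simp
  calc star (U g) = star (U g) * (U g * U g⁻¹) := by rw [h2, mul_one]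
    _ = U g⁻¹ := by rw [← mul_assoc, hU, one_mul]

lemma norm_U_le (g : G) : ‖U g‖ ≤ 1 := by
  have h := CStarRing.norm_star_mul_self (x := U g)
  rw [hU] at h
  have h1 : ‖(1 : 𝔸)‖ ≤ 1 := norm_le_one_of_proj (by simp) (by simp)
  nlinarith [norm_nonneg (U g)]

variable {P : 𝔸} (hP : P * P = P) (hPs : star P = P)

include hP hPs

/-- `(1-P) b P = 0` forces `b` to commute with `P`, for `b` in the finite group. -/
lemma comm_of_corner_zero {b : G} (h : (1 - P) * U b * P = 0) : U b * P = P * U b := by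
  have hb : U b * P = P * U b * P := by
    have : (1 - P) * U b * P = U b * P - P * U b * P := by
      simp only [sub_mul, one_mul]
    rw [this, sub_eq_zero] at h
    exact h
  have hpow : ∀ k : ℕ, U (b ^ k) * P = P * U (b ^ k) * P := by
    intro k
    induction k with
    | zero => simp [hP]
    | succ k ih =>
      rw [pow_succ, map_mul]
      calc U (b ^ k) * U b * P = U (b ^ k) * (U b * P) := by rw [mul_assoc]
        _ = U (b ^ k) * (P * U b * P) := by rw [← hb]
        _ = (U (b ^ k) * P) * (U b * P) := by simp only [mul_assoc]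
        _ = (P * U (b ^ k) * P) * (U b * P) := by rw [← ih]
        _ = P * U (b ^ k) * (P * U b * P) := by simp only [mul_assoc]
        _ = P * U (b ^ k) * (U b * P) := by rw [← hb]
        _ = _ := by simp only [mul_assoc]
  have hinv : U b⁻¹ * P = P * U b⁻¹ * P := by
    have hN : 0 < orderOf b := orderOf_pos b
    have : b⁻¹ = b ^ (orderOf b - 1) := by
      rw [eq_comm, ← mul_eq_one_iff_eq_inv, ← pow_succ, Nat.sub_add_cancel hN, pow_orderOf_eq_one]
    rw [this]
    exact hpow _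
  have hst := congrArg star hinv
  simp only [star_mul, hPs, star_U U hU, inv_inv] at hst
  -- `P * U b = P * (U b * P)`
  calc U b * P = P * U b * P := hb
    _ = P * U b := by rw [mul_assoc]; exact hst.symm

variable (x : G) (α : ℂ) (hxP : U x * P = α • P)
  (hcomm : ∀ Q : 𝔸, U x * Q = Q * U x → P * Q = Q * P) (hα : ‖α‖ = 1)

/-- The corner of an element. -/
noncomputable def corner (P : 𝔸) (U : G →* 𝔸) (a : G) : ℝ := ‖(1 - P) * U a * P‖

omit hU hP hPs in
lemma corner_nonneg (a : G) : 0 ≤ corner P U a := norm_nonneg _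

/-- The corner is at most one. -/
lemma corner_le_one (a : G) : corner P U a ≤ 1 := by
  have h1 : ‖1 - P‖ ≤ 1 := norm_le_one_of_proj (by
    simp only [sub_mul, mul_sub, one_mul, mul_one, hP, sub_self, sub_zero]) (by
    simp [hPs])
  have h2 : ‖P‖ ≤ 1 := norm_le_one_of_proj hP hPs
  have h3 := norm_U_le U hU a
  calc ‖(1 - P) * U a * P‖ ≤ ‖1 - P‖ * ‖U a‖ * ‖P‖ := by
        refine (norm_mul_le _ _).trans ?_
        exact mul_le_mul_of_nonneg_right (norm_mul_le _ _) (norm_nonneg _)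
    _ ≤ 1 * 1 * 1 := by gcongr
    _ = 1 := by norm_num

include hxP hα

/-- The element `a' = a⁻¹ x a x⁻¹`. Its corner contracts. -/
lemma corner_step (a : G) :
    corner P U (a⁻¹ * x * a * x⁻¹) ≤ ‖U x - algebraMap ℂ 𝔸 α‖ * corner P U a := by
  have hα0 : α ≠ 0 := by
    intro h
    rw [h, norm_zero] at hα
    exact zero_ne_one hα
  have h1 : ‖1 - P‖ ≤ 1 := norm_le_one_of_proj (by
    simp only [sub_mul, mul_sub, one_mul, mul_one, hP, sub_self, sub_zero]) (by
    simp [hPs])
  have hxi : U x⁻¹ * P = α⁻¹ • P := by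
    have h2 : U x⁻¹ * (U x * P) = P := by
      rw [← mul_assoc, ← map_mul]
      simp
    rw [hxP, mul_smul_comm] at h2
    calc U x⁻¹ * P = α⁻¹ • (α • (U x⁻¹ * P)) := by rw [smul_smul, inv_mul_cancel₀ hα0, one_smul]
      _ = α⁻¹ • P := by rw [h2]
  have hT : (U x - algebraMap ℂ 𝔸 α) * P = 0 := by
    rw [sub_mul, hxP, Algebra.algebraMap_eq_smul_one, smul_mul_assoc, one_mul, sub_self]
  have hPP : (1 - P) * P = 0 := by rw [sub_mul, one_mul, hP, sub_self]
  have hii : U a⁻¹ * U a = 1 := by rw [← map_mul]; simp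
  -- the identity
  have key : (1 - P) * U (a⁻¹ * x * a * x⁻¹) * P =
      α⁻¹ • ((1 - P) * U a⁻¹ * (U x - algebraMap ℂ 𝔸 α) * ((1 - P) * U a * P)) := by
    have e1 : (U x - algebraMap ℂ 𝔸 α) * ((1 - P) * U a * P) =
        (U x - algebraMap ℂ 𝔸 α) * (U a * P) := by
      have : (U x - algebraMap ℂ 𝔸 α) * (P * U a * P) = 0 := by
        rw [mul_assoc P, ← mul_assoc, hT, zero_mul]
      calc (U x - algebraMap ℂ 𝔸 α) * ((1 - P) * U a * P)
          = (U x - algebraMap ℂ 𝔸 α) * (U a * P) -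
              (U x - algebraMap ℂ 𝔸 α) * (P * U a * P) := by
            simp only [sub_mul, mul_sub, one_mul]
        _ = _ := by rw [this, sub_zero]
    have e2 : (1 - P) * U a⁻¹ * (U x - algebraMap ℂ 𝔸 α) * ((1 - P) * U a * P) =
        (1 - P) * U a⁻¹ * ((U x - algebraMap ℂ 𝔸 α) * (U a * P)) := by
      rw [mul_assoc, e1]
    rw [e2]
    have e3 : U (a⁻¹ * x * a * x⁻¹) * P = α⁻¹ • (U a⁻¹ * U x * U a * P) := by
      rw [map_mul, mul_assoc, hxi, mul_smul_comm, map_mul, map_mul]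
    have e4 : U a⁻¹ * (U x - algebraMap ℂ 𝔸 α) * (U a * P) =
        U a⁻¹ * U x * U a * P - α • P := by
      have : U a⁻¹ * algebraMap ℂ 𝔸 α * (U a * P) = α • P := by
        rw [Algebra.algebraMap_eq_smul_one, mul_smul_comm, mul_one, smul_mul_assoc, ← mul_assoc,
          hii, one_mul]
      rw [mul_sub, sub_mul, this]
      simp only [mul_assoc]
    calc (1 - P) * U (a⁻¹ * x * a * x⁻¹) * P = (1 - P) * (U (a⁻¹ * x * a * x⁻¹) * P) := by
          rw [mul_assoc]
      _ = (1 - P) * (α⁻¹ • (U a⁻¹ * U x * U a * P)) := by rw [e3]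
      _ = α⁻¹ • ((1 - P) * (U a⁻¹ * U x * U a * P)) := by rw [mul_smul_comm]
      _ = α⁻¹ • ((1 - P) * (U a⁻¹ * U x * U a * P - α • P)) := by
          rw [mul_sub, mul_smul_comm, hPP, smul_zero, sub_zero]
      _ = α⁻¹ • ((1 - P) * (U a⁻¹ * (U x - algebraMap ℂ 𝔸 α) * (U a * P))) := by rw [e4]
      _ = _ := by simp only [mul_assoc]
  show ‖(1 - P) * U (a⁻¹ * x * a * x⁻¹) * P‖ ≤ ‖U x - algebraMap ℂ 𝔸 α‖ * ‖(1 - P) * U a * P‖
  rw [key, norm_smul, norm_inv, hα, inv_one, one_mul]
  calc ‖(1 - P) * U a⁻¹ * (U x - algebraMap ℂ 𝔸 α) * ((1 - P) * U a * P)‖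
      ≤ ‖1 - P‖ * ‖U a⁻¹‖ * ‖U x - algebraMap ℂ 𝔸 α‖ * ‖(1 - P) * U a * P‖ := by
        refine (norm_mul_le _ _).trans ?_
        refine mul_le_mul_of_nonneg_right ?_ (norm_nonneg _)
        refine (norm_mul_le _ _).trans ?_
        exact mul_le_mul_of_nonneg_right (norm_mul_le _ _) (norm_nonneg _)
    _ ≤ 1 * 1 * ‖U x - algebraMap ℂ 𝔸 α‖ * ‖(1 - P) * U a * P‖ := by
        gcongr
        exact norm_U_le U hU _
    _ = _ := by ring

omit hxP hα

include hcomm

/-- If `a'` has zero corner then the corner of `a` is `0` or `1`. -/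
lemma corner_dichotomy (hxP' : U x * P = P * U x) {a : G} (h : corner P U (a⁻¹ * x * a * x⁻¹) = 0) :
    corner P U a = 0 ∨ corner P U a = 1 := by
  have h0 : (1 - P) * U (a⁻¹ * x * a * x⁻¹) * P = 0 := norm_eq_zero.mp h
  have hc := comm_of_corner_zero U hU hP hPs h0
  -- `y = a⁻¹ x a` commutes with `P`
  have hxi : U x⁻¹ * P = P * U x⁻¹ := by
    have h1 : U x⁻¹ * U x = 1 := by rw [← map_mul]; simp
    have h2 : U x * U x⁻¹ = 1 := by rw [← map_mul]; simp
    calc U x⁻¹ * P = U x⁻¹ * P * (U x * U x⁻¹) := by rw [h2, mul_one]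
      _ = U x⁻¹ * (P * U x) * U x⁻¹ := by simp only [mul_assoc]
      _ = U x⁻¹ * (U x * P) * U x⁻¹ := by rw [hxP']
      _ = (U x⁻¹ * U x) * P * U x⁻¹ := by simp only [mul_assoc]
      _ = P * U x⁻¹ := by rw [h1, one_mul]
  have hy : U (a⁻¹ * x * a) * P = P * U (a⁻¹ * x * a) := by
    have e : U (a⁻¹ * x * a) = U (a⁻¹ * x * a * x⁻¹) * U x := by
      rw [← map_mul]
      simp
    rw [e]
    calc U (a⁻¹ * x * a * x⁻¹) * U x * P = U (a⁻¹ * x * a * x⁻¹) * (U x * P) := mul_assoc _ _ _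
      _ = U (a⁻¹ * x * a * x⁻¹) * (P * U x) := by rw [hxP']
      _ = (U (a⁻¹ * x * a * x⁻¹) * P) * U x := (mul_assoc _ _ _).symm
      _ = (P * U (a⁻¹ * x * a * x⁻¹)) * U x := by rw [hc]
      _ = _ := mul_assoc _ _ _
  set Q : 𝔸 := U a * P * U a⁻¹ with hQ
  have hii : U a⁻¹ * U a = 1 := by rw [← map_mul]; simp
  have hii' : U a * U a⁻¹ = 1 := by rw [← map_mul]; simp
  have hQQ : Q * Q = Q := by
    simp only [hQ]
    calc U a * P * U a⁻¹ * (U a * P * U a⁻¹) = U a * P * (U a⁻¹ * U a) * P * U a⁻¹ := by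
          simp only [mul_assoc]
      _ = U a * (P * P) * U a⁻¹ := by rw [hii]; simp only [mul_assoc, mul_one]
      _ = _ := by rw [hP]
  have hQs : star Q = Q := by
    simp only [hQ, star_mul, hPs, star_U U hU, inv_inv, mul_assoc]
  have hxQ : U x * Q = Q * U x := by
    have e1 : U x * U a = U a * U (a⁻¹ * x * a) := by
      rw [← map_mul, ← map_mul]
      congr 1
      group
    have e2 : U a⁻¹ * U x = U (a⁻¹ * x * a) * U a⁻¹ := by
      rw [← map_mul, ← map_mul]
      congr 1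
      group
    simp only [hQ]
    calc U x * (U a * P * U a⁻¹) = (U x * U a) * P * U a⁻¹ := by simp only [mul_assoc]
      _ = U a * (U (a⁻¹ * x * a) * P) * U a⁻¹ := by rw [e1]; simp only [mul_assoc]
      _ = U a * (P * U (a⁻¹ * x * a)) * U a⁻¹ := by rw [hy]
      _ = U a * P * (U (a⁻¹ * x * a) * U a⁻¹) := by simp only [mul_assoc]
      _ = U a * P * (U a⁻¹ * U x) := by rw [e2]
      _ = _ := by simp only [mul_assoc]
  have hPQ := hcomm Q hxQ
  set e : 𝔸 := (1 - P) * Q with he
  have hee : e * e = e := by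
    have hQP : (1 - P) * Q = Q * (1 - P) := by
      simp only [sub_mul, mul_sub, one_mul, mul_one, hPQ]
    calc e * e = (1 - P) * (Q * (1 - P)) * Q := by simp only [he, mul_assoc]
      _ = (1 - P) * ((1 - P) * Q) * Q := by rw [hQP]
      _ = ((1 - P) * (1 - P)) * (Q * Q) := by simp only [mul_assoc]
      _ = e := by
        rw [hQQ, he]
        congr 1
        simp only [sub_mul, mul_sub, one_mul, mul_one, hP, sub_self, sub_zero]
  have hes : star e = e := by
    simp only [he, star_mul, hQs, star_sub, star_one, hPs]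
    simp only [sub_mul, mul_sub, one_mul, mul_one, hPQ]
  have hn : corner P U a = ‖e‖ := by
    apply le_antisymm
    · have : (1 - P) * U a * P = e * U a := by
        simp only [he, hQ, mul_assoc, hii, mul_one]
      show ‖(1 - P) * U a * P‖ ≤ ‖e‖
      rw [this]
      calc ‖e * U a‖ ≤ ‖e‖ * ‖U a‖ := norm_mul_le _ _
        _ ≤ ‖e‖ * 1 := by gcongr; exact norm_U_le U hU _
        _ = ‖e‖ := mul_one _
    · have : e = (1 - P) * U a * P * U a⁻¹ := by
        simp only [he, hQ, mul_assoc]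
      show ‖e‖ ≤ ‖(1 - P) * U a * P‖
      rw [this]
      calc ‖(1 - P) * U a * P * U a⁻¹‖ ≤ ‖(1 - P) * U a * P‖ * ‖U a⁻¹‖ := norm_mul_le _ _
        _ ≤ ‖(1 - P) * U a * P‖ * 1 := by gcongr; exact norm_U_le U hU _
        _ = _ := mul_one _
  rw [hn]
  exact norm_eq_zero_or_one_of_proj hee hes

include hxP hα

/-- **Blichfeldt type lemma.**  If `P` is the spectral projection of `U x` at `α` and
`‖U x - α‖ < 1` then all conjugates of `x` commute with `P`. -/
theorem conj_comm (hr : ‖U x - algebraMap ℂ 𝔸 α‖ < 1) (a : G) :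
    U (a⁻¹ * x * a) * P = P * U (a⁻¹ * x * a) := by
  classical
  have hxP' : U x * P = P * U x := (hcomm (U x) rfl).symm
  set r := ‖U x - algebraMap ℂ 𝔸 α‖ with hr'
  have hr0 : 0 ≤ r := norm_nonneg _
  have hstep : ∀ b : G, corner P U (b⁻¹ * x * b * x⁻¹) ≤ r * corner P U b :=
    fun b => corner_step U hU hP hPs x α hxP hα b
  have hzero : corner P U (a⁻¹ * x * a * x⁻¹) = 0 := by
    by_contra hne
    have hpos : 0 < corner P U (a⁻¹ * x * a * x⁻¹) :=
      lt_of_le_of_ne (norm_nonneg _) (Ne.symm hne)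
    have hlt : corner P U (a⁻¹ * x * a * x⁻¹) < 1 := by
      refine lt_of_le_of_lt (hstep a) ?_
      have := corner_le_one U hU hP hPs a
      nlinarith [(norm_nonneg _ : 0 ≤ ‖(1 - P) * U a * P‖), (show corner P U a = ‖(1 - P) * U a * P‖ from rfl)]
    let _ : Fintype G := Fintype.ofFinite G
    let S : Finset G := Finset.univ.filter fun b => 0 < corner P U b ∧ corner P U b < 1
    have hS : S.Nonempty := ⟨_, Finset.mem_filter.mpr ⟨Finset.mem_univ _, hpos, hlt⟩⟩
    obtain ⟨b, hb, hmin⟩ := S.exists_min_image (corner P U) hS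
    obtain ⟨-, hb0, hb1⟩ := Finset.mem_filter.mp hb
    have hless : corner P U (b⁻¹ * x * b * x⁻¹) < corner P U b := by
      refine lt_of_le_of_lt (hstep b) ?_
      nlinarith
    have hz : corner P U (b⁻¹ * x * b * x⁻¹) = 0 := by
      by_contra hne'
      have hpos' : 0 < corner P U (b⁻¹ * x * b * x⁻¹) :=
        lt_of_le_of_ne (norm_nonneg _) (Ne.symm hne')
      have hmem : b⁻¹ * x * b * x⁻¹ ∈ S :=
        Finset.mem_filter.mpr ⟨Finset.mem_univ _, hpos', hless.trans hb1⟩
      exact absurd (hmin _ hmem) (not_le.mpr hless)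
    rcases corner_dichotomy U hU hP hPs x hcomm hxP' hz with h | h
    · rw [h] at hb0
      exact lt_irrefl _ hb0
    · rw [h] at hb1
      exact lt_irrefl _ hb1
  have h0 : (1 - P) * U (a⁻¹ * x * a * x⁻¹) * P = 0 := norm_eq_zero.mp hzero
  have hc := comm_of_corner_zero U hU hP hPs h0
  have e : U (a⁻¹ * x * a) = U (a⁻¹ * x * a * x⁻¹) * U x := by
    rw [← map_mul]
    simp
  rw [e]
  calc U (a⁻¹ * x * a * x⁻¹) * U x * P = U (a⁻¹ * x * a * x⁻¹) * (U x * P) := mul_assoc _ _ _
    _ = U (a⁻¹ * x * a * x⁻¹) * (P * U x) := by rw [hxP']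
    _ = (U (a⁻¹ * x * a * x⁻¹) * P) * U x := (mul_assoc _ _ _).symm
    _ = (P * U (a⁻¹ * x * a * x⁻¹)) * U x := by rw [hc]
    _ = _ := mul_assoc _ _ _

end Cfsg.Agent.Lib.Blich.Core
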