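import Mathlib
import Cfsg.Agent.Lib.Blich.Core
import Cfsg.Agent.Lib.LinGroup.Unitary

/-!
# Spectral projections of an element of prime order in a unitary matrix representation
-/

set_option autoImplicit false
set_option linter.unusedSectionVars false

namespace Cfsg.Agent.Lib.Blich.Spec

open Finset
open Cfsg.Agent.Lib.LinGroup
open scoped Matrix.Norms.L2Operator

universe u

variable {G : Type u} [Group G] {n : ℕ}

/-- The `j`-th spectral projection of `U z`. -/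
noncomputable def Pj (U : G →* Mat n) (z : G) (ζ : ℂ) (p : ℕ) (j : ℕ) : Mat n :=
  (p : ℂ)⁻¹ • ∑ l ∈ range p, (ζ⁻¹) ^ (j * l) • U (z ^ l)

variable (U : G →* Mat n) {z : G} {ζ : ℂ} {p : ℕ}

lemma sum_shift (hz : z ^ p = 1) (hζ : ζ ^ p = 1) (j : ℕ) :
    ∑ l ∈ range p, (ζ⁻¹) ^ (j * (l + 1)) • U (z ^ (l + 1)) =
      ∑ l ∈ range p, (ζ⁻¹) ^ (j * l) • U (z ^ l) := by
  have h1 := Finset.sum_range_succ (fun l => (ζ⁻¹) ^ (j * l) • U (z ^ l)) p
  have h2 := Finset.sum_range_succ' (fun l => (ζ⁻¹) ^ (j * l) • U (z ^ l)) p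
  have h3 : (ζ⁻¹) ^ (j * p) • U (z ^ p) = (ζ⁻¹) ^ (j * 0) • U (z ^ 0) := by
    rw [hz, mul_comm j p, pow_mul, inv_pow, hζ]
    simp
  rw [h1, h3] at h2
  exact (add_right_cancel h2).symm

lemma U_mul_Pj (hz : z ^ p = 1) (hζ : ζ ^ p = 1) (hζ0 : ζ ≠ 0) (j : ℕ) :
    U z * Pj U z ζ p j = ζ ^ j • Pj U z ζ p j := by
  have key : U z * ∑ l ∈ range p, (ζ⁻¹) ^ (j * l) • U (z ^ l) =
      ζ ^ j • ∑ l ∈ range p, (ζ⁻¹) ^ (j * l) • U (z ^ l) := by
    conv_rhs => rw [← sum_shift U hz hζ j]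
    rw [Finset.mul_sum, Finset.smul_sum]
    refine Finset.sum_congr rfl fun l _ => ?_
    rw [mul_smul_comm, smul_smul, ← map_mul, ← pow_succ']
    congr 1
    rw [mul_add, mul_one, pow_add, inv_pow ζ j]
    field_simp
  simp only [Pj]
  rw [mul_smul_comm, key, smul_comm]

lemma U_pow_mul_Pj (hz : z ^ p = 1) (hζ : ζ ^ p = 1) (hζ0 : ζ ≠ 0) (j k : ℕ) :
    U (z ^ k) * Pj U z ζ p j = (ζ ^ j) ^ k • Pj U z ζ p j := by
  induction k with
  | zero => simp
  | succ k ih =>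
    rw [pow_succ z, map_mul, mul_assoc, U_mul_Pj U hz hζ hζ0, mul_smul_comm, ih, smul_smul,
      pow_succ (ζ ^ j)]
    rw [mul_comm ((ζ ^ j) ^ k)]

lemma Pj_idem (hp : p ≠ 0) (hz : z ^ p = 1) (hζ : ζ ^ p = 1) (hζ0 : ζ ≠ 0) (j : ℕ) :
    Pj U z ζ p j * Pj U z ζ p j = Pj U z ζ p j := by
  have hp' : (p : ℂ) ≠ 0 := by exact_mod_cast hp
  conv_lhs => arg 1; rw [Pj]
  rw [smul_mul_assoc, Finset.sum_mul]
  have : ∀ l ∈ range p, (ζ⁻¹) ^ (j * l) • U (z ^ l) * Pj U z ζ p j = Pj U z ζ p j := by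
    intro l _
    rw [smul_mul_assoc, U_pow_mul_Pj U hz hζ hζ0, smul_smul]
    rw [pow_mul, inv_pow, inv_pow, inv_mul_cancel₀ (pow_ne_zero _ (pow_ne_zero _ hζ0)), one_smul]
  rw [Finset.sum_congr rfl this, Finset.sum_const, card_range, ← Nat.cast_smul_eq_nsmul ℂ, smul_smul,
    inv_mul_cancel₀ hp', one_smul]

lemma geom_inv_sum (hζ : IsPrimitiveRoot ζ p) {l : ℕ} (hl : l ∈ range p) :
    ∑ j ∈ range p, (ζ⁻¹) ^ (j * l) = if l = 0 then (p : ℂ) else 0 := by
  split_ifs with h0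
  · subst h0
    simp
  · have hne : (ζ⁻¹) ^ l ≠ 1 := by
      intro h
      rw [inv_pow, inv_eq_one] at h
      have := hζ.dvd_of_pow_eq_one l h
      exact h0 (Nat.eq_zero_of_dvd_of_lt this (mem_range.mp hl))
    have h1 : ((ζ⁻¹) ^ l) ^ p = 1 := by
      rw [← pow_mul, mul_comm, pow_mul, inv_pow, hζ.pow_eq_one]
      simp
    have h2 := mul_neg_geom_sum ((ζ⁻¹) ^ l) p
    have h3 : ∑ j ∈ range p, (ζ⁻¹) ^ (j * l) = ∑ j ∈ range p, ((ζ⁻¹) ^ l) ^ j :=
      Finset.sum_congr rfl fun j _ => by rw [← pow_mul, mul_comm]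
    rw [h3]
    rw [h1, sub_self] at h2
    rcases mul_eq_zero.mp h2 with h4 | h4
    · exact absurd (sub_eq_zero.mp h4).symm hne
    · exact h4

lemma sum_Pj (hζ : IsPrimitiveRoot ζ p) (hp : p ≠ 0) :
    ∑ j ∈ range p, Pj U z ζ p j = 1 := by
  have hp' : (p : ℂ) ≠ 0 := by exact_mod_cast hp
  simp only [Pj]
  rw [← Finset.smul_sum, Finset.sum_comm]
  have : ∀ l ∈ range p, ∑ j ∈ range p, (ζ⁻¹) ^ (j * l) • U (z ^ l) =
      (if l = 0 then (p : ℂ) else 0) • U (z ^ l) := by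
    intro l hl
    rw [← Finset.sum_smul, geom_inv_sum hζ hl]
  rw [Finset.sum_congr rfl this]
  have h0 : 0 ∈ range p := mem_range.mpr (Nat.pos_of_ne_zero hp)
  rw [Finset.sum_eq_single_of_mem 0 h0]
  · simp [hp']
  · intro l _ hl
    simp [hl]

lemma comm_Pj {Q : Mat n} (h : U z * Q = Q * U z) (j : ℕ) :
    Pj U z ζ p j * Q = Q * Pj U z ζ p j := by
  have hpow : ∀ l : ℕ, U (z ^ l) * Q = Q * U (z ^ l) := by
    intro l
    induction l with
    | zero => simp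
    | succ l ih =>
      rw [pow_succ, map_mul, mul_assoc, h, ← mul_assoc, ih, mul_assoc]
  simp only [Pj]
  rw [smul_mul_assoc, mul_smul_comm, Finset.sum_mul, Finset.mul_sum]
  congr 1
  refine Finset.sum_congr rfl fun l _ => ?_
  rw [smul_mul_assoc, mul_smul_comm, hpow]

lemma star_Pj [Finite G] (hU : ∀ g, star (U g) * U g = 1) (hp : p ≠ 0) (hz : z ^ p = 1)
    (hζ : ζ ^ p = 1) (hζ1 : ‖ζ‖ = 1) (j : ℕ) :
    star (Pj U z ζ p j) = Pj U z ζ p j := by
  have hζ0 : ζ ≠ 0 := by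
    intro h
    rw [h, norm_zero] at hζ1
    exact zero_ne_one hζ1
  have hstar : star ζ = ζ⁻¹ := by
    have : ζ * star ζ = 1 := by
      rw [Complex.star_def, Complex.mul_conj, Complex.normSq_eq_norm_sq, hζ1]
      simp
    field_simp
    rw [mul_comm]
    exact this
  simp only [Pj]
  rw [star_smul, star_sum]
  have h1 : star ((p : ℂ)⁻¹) = (p : ℂ)⁻¹ := by
    rw [star_inv₀, star_natCast]
  rw [h1]
  congr 1
  rw [← sum_shift U hz hζ j]
  rw [← Finset.sum_range_reflect]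
  refine Finset.sum_congr rfl fun l hl => ?_
  have hl' := mem_range.mp hl
  rw [star_smul, Cfsg.Agent.Lib.Blich.Core.star_U U hU]
  have e1 : (z ^ (p - 1 - l))⁻¹ = z ^ (l + 1) := by
    have : (p - 1 - l) + (l + 1) = p := by omega
    rw [inv_eq_iff_mul_eq_one, ← pow_add, this, hz]
  rw [e1]
  congr 1
  rw [star_pow, star_inv₀, hstar, inv_inv, inv_pow]
  have h2 : ζ ^ (j * (p - 1 - l)) * ζ ^ (j * (l + 1)) = 1 := by
    rw [← pow_add, ← mul_add]
    have : (p - 1 - l) + (l + 1) = p := by omega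
    rw [this, mul_comm, pow_mul, hζ, one_pow]
  field_simp
  exact h2

/-- An idempotent matrix has natural number trace, and vanishes when its trace does. -/
lemma trace_of_idem (A : Mat n) (h : A * A = A) :
    ∃ m : ℕ, A.trace = (m : ℂ) ∧ (m = 0 → A = 0) := by
  classical
  let f : (Fin n → ℂ) →ₗ[ℂ] (Fin n → ℂ) := Matrix.toLin' A
  have hf : IsIdempotentElem f := by
    show f * f = f
    simp only [f]
    rw [Module.End.mul_eq_comp, ← Matrix.toLin'_mul, h]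
  have htr : LinearMap.trace ℂ (Fin n → ℂ) f = A.trace := by
    simp only [f]
    rw [Matrix.trace_toLin'_eq]
  refine ⟨Module.finrank ℂ (LinearMap.range f), ?_, ?_⟩
  · rw [← htr]
    exact (LinearMap.IsIdempotentElem.isProj_range f hf).trace
  · intro h0
    have hf0 : f = 0 := by
      have := Submodule.finrank_eq_zero.mp h0
      exact LinearMap.range_eq_bot.mp this
    simpa [f] using hf0

/-- The spectrum of `U (z^k)`. -/
lemma mem_spectrum (hζ : IsPrimitiveRoot ζ p) (hp : p ≠ 0) (hz : z ^ p = 1) (k : ℕ) {μ : ℂ}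
    (hμ : μ ∈ spectrum ℂ (U (z ^ k))) :
    ∃ j ∈ range p, Pj U z ζ p j ≠ 0 ∧ μ = (ζ ^ j) ^ k := by
  classical
  by_contra hcon
  simp only [not_exists, not_and] at hcon
  have hζ0 : ζ ≠ 0 := hζ.ne_zero hp
  have hcomm : ∀ j, Pj U z ζ p j * U (z ^ k) = U (z ^ k) * Pj U z ζ p j := by
    intro j
    have : U z * U (z ^ k) = U (z ^ k) * U z := by
      rw [← map_mul, ← map_mul, ← pow_succ', pow_succ]
    exact comm_Pj U this j
  let R : Mat n := ∑ j ∈ range p, (((ζ ^ j) ^ k - μ)⁻¹) • Pj U z ζ p j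
  have hT : ∀ j, (U (z ^ k) - algebraMap ℂ (Mat n) μ) * Pj U z ζ p j =
      ((ζ ^ j) ^ k - μ) • Pj U z ζ p j := by
    intro j
    rw [sub_mul, U_pow_mul_Pj U hz hζ.pow_eq_one hζ0, Algebra.algebraMap_eq_smul_one, smul_mul_assoc,
      one_mul, sub_smul]
  have hR1 : (U (z ^ k) - algebraMap ℂ (Mat n) μ) * R = 1 := by
    simp only [R]
    rw [Finset.mul_sum, ← sum_Pj U (z := z) hζ hp]
    refine Finset.sum_congr rfl fun j hj => ?_
    rw [mul_smul_comm, hT, smul_smul]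
    by_cases h0 : Pj U z ζ p j = 0
    · rw [h0]
      simp
    · have := hcon j hj h0
      rw [inv_mul_cancel₀ (sub_ne_zero.mpr (Ne.symm this)), one_smul]
  have hunit : IsUnit (U (z ^ k) - algebraMap ℂ (Mat n) μ) :=
    IsUnit.of_mul_eq_one _ hR1
  rw [spectrum.mem_iff] at hμ
  apply hμ
  have : algebraMap ℂ (Mat n) μ - U (z ^ k) = -(U (z ^ k) - algebraMap ℂ (Mat n) μ) := by abel
  rw [this]
  exact hunit.neg

end Cfsg.Agent.Lib.Blich.Spec
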