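import Mathlib
import Cfsg.Agent.Lib.Blich.Spec
import Cfsg.Agent.Lib.Blich.Dirichlet
import Cfsg.Agent.Lib.Char.Central
import Cfsg.Agent.Lib.Kazarin.Block

/-!
# Elements of prime order in irreducible representations of simple groups

If `z` has prime order `p` in a simple non-abelian group and the irreducible non-trivial
representation `ρ` has `z` with `r` distinct eigenvalues then `p ≤ 6 ^ (r - 1)` (Blichfeldt,
Brauer).
-/

set_option autoImplicit false
set_option linter.unusedSectionVars false

namespace Cfsg.Agent.Lib.Blich.Simple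

open Finset Module
open Cfsg.Agent.Lib.LinGroup Cfsg.Agent.Lib.Blich.Spec Cfsg.Agent.Lib.Blich.Dirichlet
open scoped Matrix.Norms.L2Operator

universe u

variable {G : Type u} [Group G] [Finite G] {n : ℕ}

/-- Trace of the unitarised representation. -/
lemma trace_U (ρ : Representation ℂ G (Fin n → ℂ)) {U : G →* Mat n} {S : (Mat n)ˣ}
    (h : ∀ g, U g = (S : Mat n) * LinearMap.toMatrix' (ρ g) * ((S⁻¹ : (Mat n)ˣ) : Mat n)) (g : G) :
    (U g).trace = ρ.character g := by
  rw [h, Matrix.trace_mul_cycle, S.inv_mul, one_mul, Representation.character,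
    ← Matrix.trace_toLin'_eq, Matrix.toLin'_toMatrix']

variable [IsSimpleGroup G]

/-- An idempotent commuting with everything in an irreducible representation is `0` or `1`. -/
lemma eq_one_of_comm (ρ : Representation ℂ G (Fin n → ℂ)) [hρ : ρ.IsIrreducible] {U : G →* Mat n}
    {S : (Mat n)ˣ}
    (h : ∀ g, U g = (S : Mat n) * LinearMap.toMatrix' (ρ g) * ((S⁻¹ : (Mat n)ˣ) : Mat n))
    {P : Mat n} (hP : P * P = P) (hP0 : P ≠ 0) (hc : ∀ g, U g * P = P * U g) : P = 1 := by
  set Si : Mat n := ((S⁻¹ : (Mat n)ˣ) : Mat n) with hSi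
  have hSS : Si * (S : Mat n) = 1 := S.inv_mul
  have hSS' : (S : Mat n) * Si = 1 := S.mul_inv
  let T : Mat n := Si * P * (S : Mat n)
  have hT : ∀ g, T * LinearMap.toMatrix' (ρ g) = LinearMap.toMatrix' (ρ g) * T := by
    intro g
    have e1 : (S : Mat n) * LinearMap.toMatrix' (ρ g) = U g * (S : Mat n) := by
      rw [h g]
      simp only [mul_assoc, hSS, mul_one]
    have e2 : LinearMap.toMatrix' (ρ g) * Si = Si * U g := by
      rw [h g]
      simp only [← mul_assoc, hSS, one_mul]
    calc T * LinearMap.toMatrix' (ρ g) = Si * P * ((S : Mat n) * LinearMap.toMatrix' (ρ g)) := by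
          simp only [T, mul_assoc]
      _ = Si * (P * U g) * (S : Mat n) := by rw [e1]; simp only [mul_assoc]
      _ = Si * (U g * P) * (S : Mat n) := by rw [hc]
      _ = (LinearMap.toMatrix' (ρ g) * Si) * P * (S : Mat n) := by rw [e2]; simp only [mul_assoc]
      _ = _ := by simp only [T, mul_assoc]
  obtain ⟨c, hcT⟩ := Cfsg.Agent.Lib.Char.Central.schur_scalar ρ (Matrix.toLin' T) (by
    intro g v
    have := congrArg (fun A => Matrix.toLin' A v) (hT g)
    simp only [Matrix.toLin'_mul, Matrix.toLin'_toMatrix', LinearMap.comp_apply] at this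
    exact this)
  have hTc : T = c • 1 := by
    have := congrArg LinearMap.toMatrix' hcT
    rw [LinearMap.toMatrix'_toLin'] at this
    rw [this]
    simp [LinearMap.toMatrix'_one]
  have hPT : P = c • 1 := by
    calc P = (S : Mat n) * T * Si := by
          simp only [T, mul_assoc, hSS', mul_one]
          simp only [← mul_assoc, hSS', one_mul]
      _ = c • 1 := by
          rw [hTc, mul_smul_comm, mul_one, smul_mul_assoc, hSS']
  have hc0 : c ≠ 0 := by
    intro h0
    apply hP0
    rw [hPT, h0, zero_smul]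
  have hc1 : c = 1 := by
    rw [hPT, smul_mul_smul_comm, mul_one] at hP
    have h1 : (c * c - c) • (1 : Mat n) = 0 := by rw [sub_smul, hP, sub_self]
    have hne : (1 : Mat n) ≠ 0 := by
      intro h10
      apply hP0
      rw [hPT, h10, smul_zero]
    have h2 := (smul_eq_zero.mp h1).resolve_right hne
    have h3 : c * (c - 1) = 0 := by linear_combination h2
    rcases mul_eq_zero.mp h3 with h4 | h4
    · exact absurd h4 hc0
    · linear_combination h4
  rw [hPT, hc1, one_smul]

/-- The main spectral bound. -/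
theorem main (hnc : ∃ a b : G, a * b ≠ b * a) (ρ : Representation ℂ G (Fin n → ℂ))
    [hρ : ρ.IsIrreducible] (hnt : ρ.character ≠ fun _ => 1) {p : ℕ} (hp : p.Prime) {z : G}
    (hz : orderOf z = p) :
    ∃ m : ℕ → ℕ,
      (∀ j, (m j : ℂ) = (p : ℂ)⁻¹ *
        ∑ l ∈ range p, (zeta p)⁻¹ ^ (j * l) * ρ.character (z ^ l)) ∧
      (∀ k, ρ.character (z ^ k) = ∑ j ∈ range p, (m j : ℂ) * (zeta p ^ j) ^ k) ∧
      (∑ j ∈ range p, m j = n) ∧
      p ≤ 6 ^ (((range p).filter fun j => m j ≠ 0).card - 1) := by
  classical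
  obtain ⟨U, S, hU, hUS⟩ := exists_unitary ρ
  have hU1 : ∀ g, star (U g) * U g = 1 := fun g => (hU g).1
  have hU2 : ∀ g, U g * star (U g) = 1 := fun g => (hU g).2
  have htr := trace_U ρ hUS
  have hp0 : p ≠ 0 := hp.ne_zero
  have hζ := zeta_primitive hp0
  set ζ := zeta p with hζdef
  have hζ0 : ζ ≠ 0 := hζ.ne_zero hp0
  have hzp : z ^ p = 1 := by rw [← hz, pow_orderOf_eq_one]
  have hζ1 := norm_zeta hp0
  have hid : ∀ j, Pj U z ζ p j * Pj U z ζ p j = Pj U z ζ p j :=
    fun j => Pj_idem U hp0 hzp hζ.pow_eq_one hζ0 j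
  choose m hm hm0 using fun j => trace_of_idem (Pj U z ζ p j) (hid j)
  have htrP : ∀ j, (m j : ℂ) = (p : ℂ)⁻¹ *
      ∑ l ∈ range p, ζ⁻¹ ^ (j * l) * ρ.character (z ^ l) := by
    intro j
    rw [← hm j, Pj, Matrix.trace_smul, Matrix.trace_sum, smul_eq_mul]
    congr 1
    refine Finset.sum_congr rfl fun l _ => ?_
    rw [Matrix.trace_smul, htr, smul_eq_mul]
  have hchar : ∀ k, ρ.character (z ^ k) = ∑ j ∈ range p, (m j : ℂ) * (ζ ^ j) ^ k := by
    intro k
    have h1 : U (z ^ k) = ∑ j ∈ range p, (ζ ^ j) ^ k • Pj U z ζ p j := by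
      conv_lhs => rw [← mul_one (U (z ^ k)), ← sum_Pj U (z := z) hζ hp0, Finset.mul_sum]
      refine Finset.sum_congr rfl fun j _ => ?_
      exact U_pow_mul_Pj U hzp hζ.pow_eq_one hζ0 j k
    rw [← htr, h1, Matrix.trace_sum]
    refine Finset.sum_congr rfl fun j _ => ?_
    rw [Matrix.trace_smul, hm, smul_eq_mul, mul_comm]
  have hsum : ∑ j ∈ range p, m j = n := by
    have h1 : ((∑ j ∈ range p, m j : ℕ) : ℂ) = (n : ℂ) := by
      push_cast
      simp_rw [← hm]
      rw [← Matrix.trace_sum, sum_Pj U (z := z) hζ hp0, Matrix.trace_one]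
      simp
    exact_mod_cast h1
  refine ⟨m, htrP, hchar, hsum, ?_⟩
  -- the real work
  by_contra hlt
  rw [not_le] at hlt
  set J := (range p).filter fun j => m j ≠ 0 with hJ
  have hJlt : ∀ j ∈ J, j < p := fun j hj => mem_range.mp (Finset.mem_filter.mp hj).1
  have hnpos : 0 < n := by
    have := Cfsg.Agent.Lib.Char.Central.finrank_pos_of_irreducible ρ
    simpa using this
  obtain ⟨j₀, hj₀⟩ : J.Nonempty := by
    by_contra hne
    rw [Finset.not_nonempty_iff_eq_empty] at hne
    have : ∑ j ∈ range p, m j = 0 := by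
      refine Finset.sum_eq_zero fun j hj => ?_
      by_contra h0
      have : j ∈ J := Finset.mem_filter.mpr ⟨hj, h0⟩
      rw [hne] at this
      simp at this
    omega
  obtain ⟨k, hk0, hkp, hnear⟩ := exists_near hp0 J hj₀ hJlt hlt
  set x := z ^ k with hx
  set α := (ζ ^ j₀) ^ k with hα
  set P := Pj U z ζ p j₀ with hP
  have hαn : ‖α‖ = 1 := by
    rw [hα, norm_pow, norm_pow, hζ1, one_pow, one_pow]
  have hPP : P * P = P := hid j₀
  have hPs : star P = P := star_Pj U hU1 hp0 hzp hζ.pow_eq_one hζ1 j₀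
  have hxP : U x * P = α • P := U_pow_mul_Pj U hzp hζ.pow_eq_one hζ0 j₀ k
  have hPne : P ≠ 0 := by
    intro h0
    have hmj := (Finset.mem_filter.mp hj₀).2
    apply hmj
    have h1 := hm j₀
    rw [← hP, h0, Matrix.trace_zero] at h1
    exact_mod_cast h1.symm
  have hcop : Nat.Coprime k p := by
    rw [Nat.coprime_comm, hp.coprime_iff_not_dvd]
    intro hd
    exact absurd (Nat.le_of_dvd hk0 hd) (by omega)
  have hcomm : ∀ Q : Mat n, U x * Q = Q * U x → P * Q = Q * P := by
    intro Q hQ
    -- `z` is a power of `x`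
    obtain ⟨k', hk'⟩ := Nat.exists_mul_mod_eq_one_of_coprime hcop hp.one_lt
    have hzx : x ^ k' = z := by
      rw [hx, ← pow_mul]
      rw [pow_eq_pow_mod _ hzp, hk'.2, pow_one]
    have hQpow : ∀ t : ℕ, U (x ^ t) * Q = Q * U (x ^ t) := by
      intro t
      induction t with
      | zero => simp
      | succ t ih =>
        rw [pow_succ, map_mul, mul_assoc, hQ, ← mul_assoc, ih, mul_assoc]
    have := hQpow k'
    rw [hzx] at this
    exact comm_Pj U this j₀
  have hnorm : ‖U x - algebraMap ℂ (Mat n) α‖ < 1 := by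
    refine norm_sub_lt_of_spectrum (hU1 x) (hU2 x) α one_pos ?_
    intro μ hμ
    obtain ⟨j, hj, hj0, rfl⟩ := mem_spectrum U hζ hp0 hzp k hμ
    have : m j ≠ 0 := fun h0 => hj0 (hm0 j h0)
    exact hnear j (Finset.mem_filter.mpr ⟨hj, this⟩)
  have hconj : ∀ a : G, U (a⁻¹ * x * a) * P = P * U (a⁻¹ * x * a) :=
    Cfsg.Agent.Lib.Blich.Core.conj_comm U hU1 hPP hPs x α hxP hcomm hαn hnorm
  have hx1 : x ≠ 1 := by
    intro h
    have := orderOf_dvd_of_pow_eq_one h
    rw [hz] at this
    exact absurd (Nat.le_of_dvd hk0 this) (by omega)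
  -- the stabiliser of `P`
  let Sb : Subgroup G :=
    { carrier := {g | U g * P = P * U g}
      one_mem' := by simp
      mul_mem' := by
        intro a b ha hb
        show U (a * b) * P = P * U (a * b)
        rw [map_mul, mul_assoc, hb, ← mul_assoc, ha, mul_assoc]
      inv_mem' := by
        intro a ha
        show U a⁻¹ * P = P * U a⁻¹
        have h1 : U a⁻¹ * U a = 1 := by rw [← map_mul]; simp
        have h2 : U a * U a⁻¹ = 1 := by rw [← map_mul]; simp
        have ha' : U a * P = P * U a := ha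
        calc U a⁻¹ * P = U a⁻¹ * P * (U a * U a⁻¹) := by rw [h2, mul_one]
          _ = U a⁻¹ * (P * U a) * U a⁻¹ := by simp only [mul_assoc]
          _ = U a⁻¹ * (U a * P) * U a⁻¹ := by rw [ha']
          _ = (U a⁻¹ * U a) * P * U a⁻¹ := by simp only [mul_assoc]
          _ = P * U a⁻¹ := by rw [h1, one_mul] }
  have hSbtop : Sb = ⊤ := by
    have hcl : Subgroup.normalClosure ({x} : Set G) ≤ Sb := by
      rw [Subgroup.normalClosure, Subgroup.closure_le]
      intro g hg
      rw [Group.mem_conjugatesOfSet_iff] at hg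
      obtain ⟨y, hy, hyg⟩ := hg
      rw [Set.mem_singleton_iff] at hy
      subst hy
      obtain ⟨a, rfl⟩ := isConj_iff.mp hyg
      have := hconj a⁻¹
      rw [inv_inv] at this
      exact this
    have hN : Subgroup.normalClosure ({x} : Set G) = ⊤ := by
      rcases IsSimpleGroup.eq_bot_or_eq_top_of_normal (Subgroup.normalClosure ({x} : Set G))
        (Subgroup.normalClosure_normal) with h | h
      · exfalso
        apply hx1
        have : x ∈ Subgroup.normalClosure ({x} : Set G) :=
          Subgroup.subset_normalClosure (Set.mem_singleton x)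
        rw [h] at this
        exact Subgroup.mem_bot.mp this
      · exact h
    rw [hN] at hcl
    exact top_le_iff.mp hcl
  have hP1 : P = 1 := by
    refine eq_one_of_comm ρ hUS hPP hPne fun g => ?_
    have : g ∈ Sb := by rw [hSbtop]; exact Subgroup.mem_top g
    exact this
  have hxs : U x = α • 1 := by
    have := hxP
    rwa [hP1, mul_one] at this
  -- `U` has trivial kernel or everything acts trivially
  rcases IsSimpleGroup.eq_bot_or_eq_top_of_normal U.ker (MonoidHom.normal_ker U) with hk | hk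
  · -- `x` is central
    have hcen : ∀ g : G, g * x = x * g := by
      intro g
      have h1 : U (g * x * g⁻¹ * x⁻¹) = 1 := by
        have h2 : U g * U g⁻¹ = 1 := by rw [← map_mul]; simp
        have h3 : U x * U x⁻¹ = 1 := by rw [← map_mul]; simp
        have hsc : ∀ A : Mat n, A * U x = U x * A := by
          intro A
          rw [hxs, mul_smul_comm, smul_mul_assoc, mul_one, one_mul]
        rw [map_mul, map_mul, map_mul, hsc, mul_assoc (U x), h2, mul_one, h3]
      have h2 : g * x * g⁻¹ * x⁻¹ ∈ U.ker := h1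
      rw [hk, Subgroup.mem_bot] at h2
      have h3 : g * x * g⁻¹ = x := by
        rwa [mul_inv_eq_one] at h2
      rwa [mul_inv_eq_iff_eq_mul] at h3
    have hZ : Subgroup.center G = ⊤ := by
      rcases IsSimpleGroup.eq_bot_or_eq_top_of_normal (Subgroup.center G) inferInstance with h | h
      · exfalso
        apply hx1
        have : x ∈ Subgroup.center G := by
          rw [Subgroup.mem_center_iff]
          exact hcen
        rw [h] at this
        exact Subgroup.mem_bot.mp this
      · exact h
    obtain ⟨a, b, hab⟩ := hnc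
    apply hab
    have : b ∈ Subgroup.center G := by rw [hZ]; exact Subgroup.mem_top b
    exact (Subgroup.mem_center_iff.mp this a)
  · -- trivial action
    have hone : ∀ g, U g = 1 := by
      intro g
      have : g ∈ U.ker := by rw [hk]; exact Subgroup.mem_top g
      exact this
    have hρ1 : ∀ g, ρ g = 1 := by
      intro g
      have h1 := hUS g
      rw [hone g] at h1
      have h2 : LinearMap.toMatrix' (ρ g) = 1 := by
        have h3 : ((S⁻¹ : (Mat n)ˣ) : Mat n) * (S : Mat n) = 1 := S.inv_mul
        have h4 : (S : Mat n) * ((S⁻¹ : (Mat n)ˣ) : Mat n) = 1 := S.mul_inv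
        calc LinearMap.toMatrix' (ρ g)
            = ((S⁻¹ : (Mat n)ˣ) : Mat n) * ((S : Mat n) * LinearMap.toMatrix' (ρ g) *
                ((S⁻¹ : (Mat n)ˣ) : Mat n)) * (S : Mat n) := by
              simp only [mul_assoc, h3, mul_one]
              simp only [← mul_assoc, h3, one_mul]
          _ = 1 := by rw [← h1, mul_one, h3]
      have h5 := congrArg Matrix.toLin' h2
      rw [Matrix.toLin'_toMatrix', Matrix.toLin'_one] at h5
      exact h5
    have hfin := Cfsg.Agent.Lib.Kazarin.Block.finrank_eq_one_of_scalars ρ (fun g => ⟨1, by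
      rw [hρ1 g, one_smul]
      rfl⟩)
    apply hnt
    funext g
    rw [Representation.character, hρ1 g]
    show LinearMap.trace ℂ (Fin n → ℂ) LinearMap.id = 1
    rw [LinearMap.trace_id, hfin]
    simp

end Cfsg.Agent.Lib.Blich.Simple
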