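import Mathlib
import Cfsg.Agent.Lib.Blich.Simple
import Cfsg.Agent.Lib.Kazarin.Block
import Cfsg.Agent.Lib.Blocks.Weak
import Cfsg.Agent.Lib.BlockT.CharSum

/-!
# Brauer's note on theorems of Burnside and Blichfeldt

A finite simple group of order `p ^ a * q ^ b * g₀`, `p`, `q` not dividing `g₀`, `a > 0`, and order
different from `p`, satisfies `p < 6 ^ (g₀ - 1)`.
-/

set_option autoImplicit false
set_option linter.unusedSectionVars false

namespace Cfsg.Agent.Lib.Blich.Brauer

open Finset Module Cfsg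
open Cfsg.Agent.Lib.Blich.Dirichlet
open Cfsg.Agent.Lib.Blocks.Local Cfsg.Agent.Lib.Blocks.Weak
open scoped ComplexConjugate

universe u

variable {G : Type u} [Group G] [Finite G]

/-- An element of order `p` with class size prime to `p`. -/
theorem exists_central_elt {p : ℕ} (hp : p.Prime) (hd : p ∣ Nat.card G) :
    ∃ z : G, orderOf z = p ∧ ¬ p ∣ (Subgroup.centralizer ({z} : Set G)).index := by
  haveI : Fact p.Prime := ⟨hp⟩
  let P : Sylow p G := default
  have hPd : p ∣ Nat.card (P : Subgroup G) := by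
    have h1 := P.card_eq_multiplicity
    rw [h1]
    have : Nat.card G ≠ 0 := Nat.card_pos.ne'
    exact dvd_pow_self p (by
      have := (hp.dvd_iff_one_le_factorization this).mp hd
      omega)
  haveI : Nontrivial (P : Subgroup G) := by
    apply Finite.one_lt_card_iff_nontrivial.mp
    have h := Nat.le_of_dvd Nat.card_pos hPd
    have := hp.one_lt
    omega
  have hPp : IsPGroup p (P : Subgroup G) := P.isPGroup'
  haveI := hPp.center_nontrivial
  obtain ⟨w, hw⟩ := exists_ne (1 : Subgroup.center (P : Subgroup G))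
  have hw1 : ((w : (P : Subgroup G)) : G) ≠ 1 := by
    intro h
    apply hw
    apply Subtype.ext
    apply Subtype.ext
    exact h
  obtain ⟨t, ht⟩ := (IsPGroup.iff_orderOf.mp hPp) (w : (P : Subgroup G))
  have ht' : orderOf ((w : (P : Subgroup G)) : G) = p ^ t := by
    rw [Subgroup.orderOf_coe]
    exact ht
  have ht0 : t ≠ 0 := by
    rintro rfl
    rw [pow_zero, orderOf_eq_one_iff] at ht'
    exact hw1 ht'
  obtain ⟨s, rfl⟩ := Nat.exists_eq_succ_of_ne_zero ht0
  refine ⟨((w : (P : Subgroup G)) : G) ^ (p ^ s), ?_, ?_⟩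
  · rw [orderOf_pow_of_dvd (pow_ne_zero _ hp.ne_zero) (by rw [ht']; exact pow_dvd_pow _ (Nat.le_succ s)),
      ht', pow_succ, Nat.mul_div_cancel_left _ (pow_pos hp.pos s)]
  · set z : G := ((w : (P : Subgroup G)) : G) ^ (p ^ s) with hz
    have hle : (P : Subgroup G) ≤ Subgroup.centralizer ({z} : Set G) := by
      intro h hh
      rw [Subgroup.mem_centralizer_iff]
      rintro y rfl
      have h1 := Subgroup.mem_center_iff.mp w.2 ⟨h, hh⟩
      have h2 : h * ((w : (P : Subgroup G)) : G) = ((w : (P : Subgroup G)) : G) * h :=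
        congrArg Subtype.val h1
      have h3 : Commute ((w : (P : Subgroup G)) : G) h := h2.symm
      exact (h3.pow_left (p ^ s)).eq
    have hd1 := Subgroup.index_dvd_of_le hle
    intro hdiv
    exact P.not_dvd_index (hdiv.trans hd1)

/-- Centralizers of powers of an element of prime order. -/
theorem centralizer_pow {p : ℕ} (hp : p.Prime) {z : G} (hz : orderOf z = p) {l : ℕ} (hl : ¬ p ∣ l) :
    Subgroup.centralizer ({z ^ l} : Set G) = Subgroup.centralizer ({z} : Set G) := by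
  have hcop : Nat.Coprime l p := ((hp.coprime_iff_not_dvd).mpr hl).symm
  obtain ⟨l', hl'⟩ := Nat.exists_mul_mod_eq_one_of_coprime hcop hp.one_lt
  have hzp : z ^ p = 1 := by rw [← hz, pow_orderOf_eq_one]
  have hzl : (z ^ l) ^ l' = z := by
    rw [← pow_mul, pow_eq_pow_mod _ hzp, hl'.2, pow_one]
  apply le_antisymm
  · intro h hh
    rw [Subgroup.mem_centralizer_iff] at hh ⊢
    intro y hy
    rw [Set.mem_singleton_iff.mp hy]
    have h1 : Commute (z ^ l) h := hh _ rfl
    have h2 := h1.pow_left l'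
    rw [hzl] at h2
    exact h2.eq
  · intro h hh
    rw [Subgroup.mem_centralizer_iff] at hh ⊢
    intro y hy
    rw [Set.mem_singleton_iff.mp hy]
    have h1 : Commute z h := hh _ rfl
    exact (h1.pow_left l).eq

/-- Existence of the character. -/
theorem exists_char {M : Ideal AlgInt} {p q : ℕ} (hM : IsPModular p M) (hq : q.Prime) {z : G}
    (hz : p ∣ orderOf z) :
    ∃ χ : IrrCharacter G, χ ∈ principalBlock M G ∧ (χ : G → ℂ) ≠ (fun _ => 1) ∧
      ¬ q ∣ charDegree (χ : G → ℂ) := by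
  classical
  by_contra hcon
  simp only [not_exists, not_and, not_not] at hcon
  haveI := isPrime_of_pModular hM
  let _ : Fintype G := Fintype.ofFinite G
  have := Cfsg.Agent.Lib.Char.Ortho.finite_irrCharacter (G := G)
  let _ : Fintype (IrrCharacter G) := Fintype.ofFinite _
  have hB : IsPBlock M (principalBlock M G) :=
    ⟨⟨fun _ => 1, Cfsg.Agent.Lib.Char.Burnside.isIrrCharacter_one⟩, rfl⟩
  have hp1 : ¬ p ∣ orderOf (1 : G) := by simpa using hM.1.one_lt.ne'
  have hsum := sum_block_eq_zero hM hB (1 : G) z hp1 hz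
  let τ : IrrCharacter G := ⟨fun _ => 1, Cfsg.Agent.Lib.Char.Burnside.isIrrCharacter_one⟩
  have hτ : τ ∈ principalBlock M G := by
    intro g
    simp [τ, memLocalIdeal_zero]
  have key : ∀ χ : IrrCharacter G, ∃ β : ℂ, IsIntegral ℤ β ∧
      (if χ ∈ principalBlock M G then (χ : G → ℂ) 1 * conj ((χ : G → ℂ) z) else 0) =
        (if χ = τ then 1 else 0) + (q : ℂ) * β := by
    intro χ
    by_cases h1 : χ = τ
    · subst h1
      refine ⟨0, isIntegral_zero, ?_⟩
      rw [if_pos hτ, if_pos rfl]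
      simp [τ]
    · by_cases hmem : χ ∈ principalBlock M G
      · have hne : (χ : G → ℂ) ≠ (fun _ => 1) := fun h => h1 (Subtype.ext h)
        obtain ⟨d, hd⟩ := hcon χ hmem hne
        obtain ⟨n, hn⟩ := Cfsg.Agent.Lib.Char.Basic.exists_deg_of_isCharacter
          (Cfsg.Agent.Lib.Char.Basic.isCharacter_of_isIrrCharacter χ.2)
        have hdeg : charDegree (χ : G → ℂ) = n := by
          rw [charDegree, hn]
          simp
        have hχ1 : (χ : G → ℂ) 1 = (q : ℂ) * (d : ℂ) := by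
          rw [hn, ← hdeg, hd]
          push_cast
          rfl
        have hint2 : IsIntegral ℤ (conj ((χ : G → ℂ) z)) := by
          obtain ⟨n', ρ, -, hρ⟩ := χ.2
          rw [← hρ, ← Cfsg.Agent.Lib.Char.Eigen.character_inv]
          exact Cfsg.Agent.Lib.Char.Eigen.character_isIntegral ρ _
        have hintd : IsIntegral ℤ (d : ℂ) := by
          have h := isIntegral_algebraMap (R := ℤ) (A := ℂ) (x := (d : ℤ))
          simpa using h
        refine ⟨(d : ℂ) * conj ((χ : G → ℂ) z), hintd.mul hint2, ?_⟩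
        rw [if_pos hmem, if_neg h1, hχ1]
        ring
      · refine ⟨0, isIntegral_zero, ?_⟩
        rw [if_neg hmem, if_neg h1]
        simp
  choose β hβ hβ' using key
  have hfinal : (1 : ℂ) + (q : ℂ) * ∑ χ, β χ = 0 := by
    rw [← hsum]
    simp_rw [hβ']
    rw [Finset.sum_add_distrib, ← Finset.mul_sum]
    congr 1
    simp
  have hqne : (q : ℂ) ≠ 0 := by exact_mod_cast hq.ne_zero
  have hinv : ((1 : ℕ) : ℂ) / (q : ℂ) = -∑ χ, β χ := by
    push_cast
    field_simp
    linear_combination hfinal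
  have hdvd : q ∣ 1 := by
    apply Cfsg.Agent.Lib.Char.Central.nat_dvd_of_isIntegral_div hq.ne_zero
    rw [hinv]
    exact (IsIntegral.sum _ fun χ _ => hβ χ).neg
  exact hq.one_lt.ne' (Nat.dvd_one.mp hdvd)

/-- Differences of `p`-th roots of unity lie in the local ideal at `M`. -/
lemma root_diff_mem {M : Ideal AlgInt} {p : ℕ} (hM : IsPModular p M) {w₁ w₂ : ℂ} (h₁ : w₁ ^ p = 1)
    (h₂ : w₂ ^ p = 1) : MemLocalIdeal M (w₁ - w₂) := by
  haveI := isPrime_of_pModular hM
  have hp0 := hM.1.pos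
  have hi : ∀ w : ℂ, w ^ p = 1 → IsIntegral ℤ w := fun w hw =>
    Cfsg.Agent.Lib.BlockT.Local.isIntegral_of_pow_eq_one hp0 hw
  let a : AlgInt := ⟨w₁, hi _ h₁⟩
  let b : AlgInt := ⟨w₂, hi _ h₂⟩
  have ha : a ^ (p ^ 1) = 1 := by
    apply Subtype.ext
    simpa [a] using h₁
  have hb : b ^ (p ^ 1) = 1 := by
    apply Subtype.ext
    simpa [b] using h₂
  have h1 := Cfsg.Agent.Lib.BlockH.Basic.sub_one_mem_of_pow_prime_pow hM ha
  have h2 := Cfsg.Agent.Lib.BlockH.Basic.sub_one_mem_of_pow_prime_pow hM hb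
  have h3 : (a - b) ∈ M := by
    have : a - b = (1 - b) - (1 - a) := by ring
    rw [this]
    exact M.sub_mem h2 h1
  have := memLocalIdeal_coe_iff.mpr h3
  simpa [a, b] using this

lemma lt_six_pow {n : ℕ} (hn : 2 ≤ n) : n < 6 ^ (n - 1) := by
  induction n, hn using Nat.le_induction with
  | base => norm_num
  | succ n hn ih =>
    have : n + 1 - 1 = (n - 1) + 1 := by omega
    rw [this, pow_succ]
    omega

/-- **Brauer.** -/
theorem main [IsSimpleGroup G] (p q a b g₀ : ℕ) (hp : p.Prime) (hq : q.Prime) (ha : 0 < a)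
    (hg : Nat.card G = p ^ a * q ^ b * g₀) (hcoq : ¬ q ∣ g₀) (hne : Nat.card G ≠ p) :
    p < 6 ^ (g₀ - 1) := by
  classical
  by_contra hlt
  rw [not_lt] at hlt
  have hcard0 : Nat.card G ≠ 0 := Nat.card_pos.ne'
  have hg0 : g₀ ≠ 0 := by
    rintro rfl
    rw [mul_zero] at hg
    exact hcard0 hg
  have hg₀p : g₀ < p := by
    by_contra hge
    rw [not_lt] at hge
    have h1 := lt_six_pow hp.two_le
    have h2 : 6 ^ (p - 1) ≤ 6 ^ (g₀ - 1) := Nat.pow_le_pow_right (by norm_num) (by omega)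
    omega
  have hpd : p ∣ Nat.card G := by
    rw [hg]
    exact Dvd.dvd.mul_right (Dvd.dvd.mul_right (dvd_pow_self p ha.ne') _) _
  -- `G` is not abelian
  have hnc : ∃ x y : G, x * y ≠ y * x := by
    by_contra hcom
    simp only [not_exists, not_not] at hcom
    letI : CommGroup G := { (inferInstance : Group G) with mul_comm := hcom }
    have hpr : (Nat.card G).Prime := IsSimpleGroup.prime_card
    exact hne ((Nat.prime_dvd_prime_iff_eq hp hpr).mp hpd).symm
  obtain ⟨z, hz, hzc⟩ := exists_central_elt hp hpd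
  obtain ⟨M, hM⟩ := Cfsg.Agent.Lib.BlockH.Basic.exists_isPModular hp
  haveI := isPrime_of_pModular hM
  obtain ⟨χ, hχB, hχ1, hqχ⟩ := exists_char (z := z) hM hq (by rw [hz])
  obtain ⟨n, ρ, hirr, hρ⟩ := χ.2
  haveI := hirr
  have hdeg : charDegree (χ : G → ℂ) = n := by
    rw [← hρ]
    rw [Cfsg.Agent.Lib.BlockT.CharSum.charDegree_character]
  rw [hdeg] at hqχ
  have hnt : ρ.character ≠ fun _ => 1 := by
    rw [hρ]
    exact hχ1
  obtain ⟨m, hmF, hmC, hmS, hDir⟩ := Cfsg.Agent.Lib.Blich.Simple.main hnc ρ hnt hp hz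
  have hfin : finrank ℂ (Fin n → ℂ) = n := by simp
  have hnpos : 0 < n := by
    have := Cfsg.Agent.Lib.Char.Central.finrank_pos_of_irreducible ρ
    rwa [hfin] at this
  have hp0 : p ≠ 0 := hp.ne_zero
  have hζ := zeta_primitive hp0
  set ζ := zeta p with hζdef
  have hzp : z ^ p = 1 := by rw [← hz, pow_orderOf_eq_one]
  set c := (Subgroup.centralizer ({z} : Set G)).index with hc
  have hcpos : 0 < c := Nat.pos_of_ne_zero (by
    intro h0
    exact hzc (by rw [h0]; exact dvd_zero p))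
  -- gcd decomposition
  set d := Nat.gcd c n with hd
  obtain ⟨c', u, hcu, hc', hu⟩ := Nat.exists_coprime c n
  rw [← hd] at hc' hu
  have hdpos : 0 < d := Nat.gcd_pos_of_pos_left _ hcpos
  have hupos : 0 < u := by
    rcases Nat.eq_zero_or_pos u with h | h
    · rw [h, zero_mul] at hu
      omega
    · exact h
  -- `d` divides `g₀`
  have hdg : d ∣ g₀ := by
    have h1 : c ∣ Nat.card G := Subgroup.index_dvd_card _
    have h2 : Nat.Coprime c (p ^ a) := Nat.Coprime.pow_right a
      ((Nat.Prime.coprime_iff_not_dvd hp).mpr hzc).symm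
    rw [hg, mul_assoc] at h1
    have h3 : c ∣ q ^ b * g₀ := h2.dvd_of_dvd_mul_left h1
    have h4 : d ∣ q ^ b * g₀ := (Nat.gcd_dvd_left c n).trans h3
    have h5 : Nat.Coprime d (q ^ b) := by
      apply Nat.Coprime.pow_right
      rw [Nat.coprime_comm, Nat.Prime.coprime_iff_not_dvd hq]
      intro h6
      exact hqχ (h6.trans (Nat.gcd_dvd_right c n))
    exact h5.dvd_of_dvd_mul_left h4
  have hdle : d ≤ g₀ := Nat.le_of_dvd (Nat.pos_of_ne_zero hg0) hdg
  have hdp : d < p := lt_of_le_of_lt hdle hg₀p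
  -- integrality of `χ(z^l) / u`
  have hnC : (n : ℂ) = (u : ℂ) * (d : ℂ) := by rw [hu]; push_cast; ring
  have hcC : (c : ℂ) = (c' : ℂ) * (d : ℂ) := by rw [hc']; push_cast; ring
  have hdC : (d : ℂ) ≠ 0 := by exact_mod_cast hdpos.ne'
  have huC : (u : ℂ) ≠ 0 := by exact_mod_cast hupos.ne'
  have hα : ∀ l, 0 < l → l < p → IsIntegral ℤ (ρ.character (z ^ l) / (u : ℂ)) := by
    intro l hl0 hlp
    have hpl : ¬ p ∣ l := fun h => absurd (Nat.le_of_dvd hl0 h) (by omega)
    have h1 := Cfsg.Agent.Lib.Char.Central.index_mul_character_div_isIntegral ρ (z ^ l)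
    rw [centralizer_pow hp hz hpl, hfin, ← hc] at h1
    have h2 : (c : ℂ) * ρ.character (z ^ l) / (n : ℂ) =
        (c' : ℂ) * ρ.character (z ^ l) / (u : ℂ) := by
      rw [hcC, hnC]
      field_simp
    rw [h2] at h1
    have hbez : (c' : ℤ) * Nat.gcdA c' u + (u : ℤ) * Nat.gcdB c' u = 1 := by
      have := Nat.gcd_eq_gcd_ab c' u
      rw [hcu.gcd_eq_one] at this
      push_cast at this
      linarith
    have hbezC : (c' : ℂ) * (Nat.gcdA c' u : ℂ) + (u : ℂ) * (Nat.gcdB c' u : ℂ) = 1 := by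
      exact_mod_cast hbez
    have h3 : ρ.character (z ^ l) / (u : ℂ) =
        (Nat.gcdA c' u : ℂ) * ((c' : ℂ) * ρ.character (z ^ l) / (u : ℂ)) +
          (Nat.gcdB c' u : ℂ) * ρ.character (z ^ l) := by
      field_simp
      linear_combination (-ρ.character (z ^ l)) * hbezC
    rw [h3]
    have hi : ∀ t : ℤ, IsIntegral ℤ (t : ℂ) := fun t => by
      have h := isIntegral_algebraMap (R := ℤ) (A := ℂ) (x := t)
      simpa using h
    exact ((hi _).mul h1).add ((hi _).mul (Cfsg.Agent.Lib.Char.Eigen.character_isIntegral ρ _))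
  -- minimal multiplicity
  have hrange : (range p).Nonempty := ⟨0, mem_range.mpr hp.pos⟩
  obtain ⟨j₁, hj₁, hmin⟩ := Finset.exists_min_image (range p) m hrange
  set m₀ := m j₁ with hm₀
  have hroot : ∀ j l : ℕ, (ζ⁻¹ ^ (j * l)) ^ p = 1 := by
    intro j l
    rw [← pow_mul, mul_comm, pow_mul, inv_pow, hζ.pow_eq_one]
    simp
  have hpC : (p : ℂ) ≠ 0 := by exact_mod_cast hp0
  -- the differences are multiples of `u`
  have hdiv : ∀ i ∈ range p, u ∣ m i - m₀ := by
    intro i hi
    have hmi : m₀ ≤ m i := hmin i hi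
    set D := m i - m₀ with hD
    have hDC : (D : ℂ) = (m i : ℂ) - (m₀ : ℂ) := by
      rw [hD, Nat.cast_sub hmi]
    have hsumF : (p : ℂ) * (D : ℂ) / (u : ℂ) = ∑ l ∈ range p,
        (ζ⁻¹ ^ (i * l) - ζ⁻¹ ^ (j₁ * l)) * (ρ.character (z ^ l) / (u : ℂ)) := by
      rw [hDC, hmF i, hm₀, hmF j₁]
      have : ∀ l ∈ range p, (ζ⁻¹ ^ (i * l) - ζ⁻¹ ^ (j₁ * l)) * (ρ.character (z ^ l) / (u : ℂ)) =
          (ζ⁻¹ ^ (i * l) * ρ.character (z ^ l) - ζ⁻¹ ^ (j₁ * l) * ρ.character (z ^ l)) / (u : ℂ) := by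
        intro l _
        ring
      rw [Finset.sum_congr rfl this, ← Finset.sum_div, Finset.sum_sub_distrib]
      field_simp
    have hterm : ∀ l ∈ range p, IsIntegral ℤ ((ζ⁻¹ ^ (i * l) - ζ⁻¹ ^ (j₁ * l)) *
        (ρ.character (z ^ l) / (u : ℂ))) ∧ MemLocalIdeal M ((ζ⁻¹ ^ (i * l) - ζ⁻¹ ^ (j₁ * l)) *
        (ρ.character (z ^ l) / (u : ℂ))) := by
      intro l hl
      rcases Nat.eq_zero_or_pos l with h0 | h0
      · subst h0
        simp only [mul_zero, pow_zero, sub_self, zero_mul]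
        exact ⟨isIntegral_zero, memLocalIdeal_zero⟩
      · have h1 := hα l h0 (mem_range.mp hl)
        have h2 : IsIntegral ℤ (ζ⁻¹ ^ (i * l) - ζ⁻¹ ^ (j₁ * l)) :=
          (Cfsg.Agent.Lib.BlockT.Local.isIntegral_of_pow_eq_one hp.pos (hroot i l)).sub
            (Cfsg.Agent.Lib.BlockT.Local.isIntegral_of_pow_eq_one hp.pos (hroot j₁ l))
        exact ⟨h2.mul h1, memLocalIdeal_mul_right (root_diff_mem hM (hroot i l) (hroot j₁ l))
          (memLocalRing_of_isIntegral h1)⟩
    have hint : IsIntegral ℤ (((p * D : ℕ) : ℂ) / (u : ℂ)) := by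
      push_cast
      rw [hsumF]
      exact IsIntegral.sum _ fun l hl => (hterm l hl).1
    have hloc : MemLocalIdeal M (((p * D : ℕ) : ℂ) / (u : ℂ)) := by
      push_cast
      rw [hsumF]
      exact memLocalIdeal_sum _ _ fun l hl => (hterm l hl).2
    obtain ⟨N, hN⟩ := Cfsg.Agent.Lib.Char.Central.nat_dvd_of_isIntegral_div hupos.ne' hint
    have hNC : ((p * D : ℕ) : ℂ) / (u : ℂ) = (N : ℂ) := by
      rw [hN]
      push_cast
      field_simp
    rw [hNC, natCast_memLocalIdeal_iff hM] at hloc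
    obtain ⟨N', rfl⟩ := hloc
    refine ⟨N', ?_⟩
    have h5 : p * D = p * (u * N') := by
      rw [hN]
      ring
    exact Nat.eq_of_mul_eq_mul_left hp.pos h5
  -- the coefficients
  let A : ℕ → ℕ := fun i => (m i - m₀) / u
  have hmA : ∀ i ∈ range p, m i = m₀ + u * A i := by
    intro i hi
    have h1 := Nat.mul_div_cancel' (hdiv i hi)
    have h2 := hmin i hi
    simp only [A]
    omega
  set AA := ∑ i ∈ range p, A i with hAA
  have hsum : u * d = p * m₀ + u * AA := by
    rw [← hu, ← hmS, Finset.sum_congr rfl hmA, Finset.sum_add_distrib, ← Finset.mul_sum]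
    simp only [Finset.sum_const, Finset.card_range, smul_eq_mul, hAA]
  have hAd : AA ≤ d := by
    have : u * AA ≤ u * d := by omega
    exact Nat.le_of_mul_le_mul_left this hupos
  -- the value at `z`
  have hgeom : ∑ i ∈ range p, ζ ^ i = 0 := hζ.geom_sum_eq_zero hp.one_lt
  have hval : ρ.character z = (u : ℂ) * ∑ i ∈ range p, (A i : ℂ) * ζ ^ i := by
    have h1 := hmC 1
    rw [pow_one] at h1
    rw [h1]
    have h2 : ∀ i ∈ range p, (m i : ℂ) * (ζ ^ i) ^ 1 =
        (m₀ : ℂ) * ζ ^ i + (u : ℂ) * ((A i : ℂ) * ζ ^ i) := by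
      intro i hi
      rw [hmA i hi, pow_one]
      push_cast
      ring
    rw [Finset.sum_congr rfl h2, Finset.sum_add_distrib, ← Finset.mul_sum, hgeom, mul_zero, zero_add,
      ← Finset.mul_sum]
  -- block congruence
  have hblock := hχB z
  have hχval : ∀ g, (χ : G → ℂ) g = ρ.character g := fun g => by rw [hρ]
  have hχone : (χ : G → ℂ) 1 = (n : ℂ) := by
    rw [hχval, Representation.char_one]
    simp
  have hnC0 : (n : ℂ) ≠ 0 := by exact_mod_cast hnpos.ne'
  have hcen : centralChar (fun _ : G => (1 : ℂ)) z - centralChar (χ : G → ℂ) z =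
      (c : ℂ) - (c' : ℂ) * ∑ i ∈ range p, (A i : ℂ) * ζ ^ i := by
    simp only [centralChar]
    rw [hχone, hχval z, hval, hnC, hcC]
    field_simp
  rw [hcen] at hblock
  -- `c' (d - AA)` is in the ideal
  have hmain : MemLocalIdeal M (((c' * (d - AA) : ℕ)) : ℂ) := by
    have e : (((c' * (d - AA) : ℕ)) : ℂ) = ((c : ℂ) - (c' : ℂ) * ∑ i ∈ range p, (A i : ℂ) * ζ ^ i) +
        (c' : ℂ) * ∑ i ∈ range p, (A i : ℂ) * (ζ ^ i - 1) := by
      have h1 : ∑ i ∈ range p, (A i : ℂ) * (ζ ^ i - 1) =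
          ∑ i ∈ range p, (A i : ℂ) * ζ ^ i - (AA : ℂ) := by
        rw [hAA]
        push_cast
        rw [← Finset.sum_sub_distrib]
        refine Finset.sum_congr rfl fun i _ => ?_
        ring
      rw [h1, hcC]
      push_cast [Nat.cast_sub hAd]
      ring
    rw [e]
    refine memLocalIdeal_add hblock (memLocalIdeal_mul_left (memLocalRing_natCast _) ?_)
    refine memLocalIdeal_sum _ _ fun i _ => memLocalIdeal_mul_left (memLocalRing_natCast _) ?_
    refine root_diff_mem hM ?_ (one_pow _)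
    rw [← pow_mul, mul_comm, pow_mul, hζ.pow_eq_one, one_pow]
  rw [natCast_memLocalIdeal_iff hM] at hmain
  have hpc' : ¬ p ∣ c' := fun h => hzc (by rw [hc']; exact Dvd.dvd.mul_right h _)
  have hpd' : p ∣ d - AA := (hp.dvd_mul.mp hmain).resolve_left hpc'
  have hAeq : AA = d := by
    have : d - AA = 0 := Nat.eq_zero_of_dvd_of_lt hpd' (by omega)
    omega
  have hm₀0 : m₀ = 0 := by
    rw [hAeq] at hsum
    have : p * m₀ = 0 := by omega
    exact (Nat.mul_eq_zero.mp this).resolve_left hp0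
  -- the count of eigenvalues
  set J := (range p).filter fun j => m j ≠ 0 with hJ
  have hJcard : J.card ≤ d := by
    have h1 : J.card = ∑ i ∈ J, 1 := by simp
    have h2 : ∑ i ∈ J, 1 ≤ ∑ i ∈ J, A i := by
      refine Finset.sum_le_sum fun i hi => ?_
      obtain ⟨hi1, hi2⟩ := Finset.mem_filter.mp hi
      have h3 := hmA i hi1
      rw [hm₀0, zero_add] at h3
      by_contra h4
      have : A i = 0 := by omega
      rw [this, mul_zero] at h3
      exact hi2 h3
    have h3 : ∑ i ∈ J, A i ≤ ∑ i ∈ range p, A i :=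
      Finset.sum_le_sum_of_subset (Finset.filter_subset _ _)
    omega
  have hle : p ≤ 6 ^ (g₀ - 1) :=
    hDir.trans (Nat.pow_le_pow_right (by norm_num) (by omega))
  have heq : p = 6 ^ (g₀ - 1) := le_antisymm hle hlt
  rcases Nat.eq_zero_or_pos (g₀ - 1) with h0 | h0
  · rw [h0, pow_zero] at heq
    exact hp.one_lt.ne' heq
  · have h2 : 2 ∣ p := by
      rw [heq]
      exact dvd_pow (by norm_num) h0.ne'
    have h3 : 3 ∣ p := by
      rw [heq]
      exact dvd_pow (by norm_num) h0.ne'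
    have e2 := (Nat.prime_dvd_prime_iff_eq Nat.prime_two hp).mp h2
    have e3 := (Nat.prime_dvd_prime_iff_eq Nat.prime_three hp).mp h3
    omega

end Cfsg.Agent.Lib.Blich.Brauer
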